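import Cfsg.Agent.H6.Fi22I.D

set_option autoImplicit false
set_option maxRecDepth 100000
set_option Elab.async false

namespace Cfsg.H6.Fi22I

theorem ea : eaChk chk 42649378395939397566720 sg 10 = true := by decide +kernel

theorem li4 : linChk chk 42649378395939397566720 sg 10 A 4 = true := by decide +kernel

theorem li8 : linChk chk 42649378395939397566720 sg 10 A 8 = true := by decide +kernel

theorem li12 : linChk chk 42649378395939397566720 sg 10 A 12 = true := by decide +kernel

theorem li16 : linChk chk 42649378395939397566720 sg 10 A 16 = true := by decide +kernel

theorem co1 : allR (cosChk chk 42649378395939397566720 sg 10 3 M (Cs.map Prod.fst)) 8 8 = true := by decide +kernel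

theorem co5 : allR (cosChk chk 42649378395939397566720 sg 10 3 M (Cs.map Prod.fst)) 40 8 = true := by decide +kernel

theorem co9 : allR (cosChk chk 42649378395939397566720 sg 10 3 M (Cs.map Prod.fst)) 72 8 = true := by decide +kernel

theorem co13 : allR (cosChk chk 42649378395939397566720 sg 10 3 M (Cs.map Prod.fst)) 104 8 = true := by decide +kernel

end Cfsg.H6.Fi22I
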