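import Cfsg.Agent.H6.Fi22I.D

set_option autoImplicit false
set_option maxRecDepth 100000
set_option Elab.async false

namespace Cfsg.H6.Fi22I

theorem li1 : linChk chk 42649378395939397566720 sg 10 A 1 = true := by decide +kernel

theorem li5 : linChk chk 42649378395939397566720 sg 10 A 5 = true := by decide +kernel

theorem li9 : linChk chk 42649378395939397566720 sg 10 A 9 = true := by decide +kernel

theorem li13 : linChk chk 42649378395939397566720 sg 10 A 13 = true := by decide +kernel

theorem li17 : linChk chk 42649378395939397566720 sg 10 A 17 = true := by decide +kernel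

theorem co2 : allR (cosChk chk 42649378395939397566720 sg 10 3 M (Cs.map Prod.fst)) 16 8 = true := by decide +kernel

theorem co6 : allR (cosChk chk 42649378395939397566720 sg 10 3 M (Cs.map Prod.fst)) 48 8 = true := by decide +kernel

theorem co10 : allR (cosChk chk 42649378395939397566720 sg 10 3 M (Cs.map Prod.fst)) 80 8 = true := by decide +kernel

theorem co14 : allR (cosChk chk 42649378395939397566720 sg 10 3 M (Cs.map Prod.fst)) 112 8 = true := by decide +kernel

end Cfsg.H6.Fi22I
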