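import Cfsg.Agent.H6.Fi22I.D

set_option autoImplicit false
set_option maxRecDepth 100000
set_option Elab.async false

namespace Cfsg.H6.Fi22I

theorem li2 : linChk chk 42649378395939397566720 sg 10 A 2 = true := by decide +kernel

theorem li6 : linChk chk 42649378395939397566720 sg 10 A 6 = true := by decide +kernel

theorem li10 : linChk chk 42649378395939397566720 sg 10 A 10 = true := by decide +kernel

theorem li14 : linChk chk 42649378395939397566720 sg 10 A 14 = true := by decide +kernel

theorem li18 : linChk chk 42649378395939397566720 sg 10 A 18 = true := by decide +kernel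

theorem co3 : allR (cosChk chk 42649378395939397566720 sg 10 3 M (Cs.map Prod.fst)) 24 8 = true := by decide +kernel

theorem co7 : allR (cosChk chk 42649378395939397566720 sg 10 3 M (Cs.map Prod.fst)) 56 8 = true := by decide +kernel

theorem co11 : allR (cosChk chk 42649378395939397566720 sg 10 3 M (Cs.map Prod.fst)) 88 8 = true := by decide +kernel

theorem co15 : allR (cosChk chk 42649378395939397566720 sg 10 3 M (Cs.map Prod.fst)) 120 8 = true := by decide +kernel

end Cfsg.H6.Fi22I
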