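import Cfsg.Agent.H6.Fi22I.D

set_option autoImplicit false
set_option maxRecDepth 100000
set_option Elab.async false

namespace Cfsg.H6.Fi22I

theorem li3 : linChk chk 42649378395939397566720 sg 10 A 3 = true := by decide +kernel

theorem li7 : linChk chk 42649378395939397566720 sg 10 A 7 = true := by decide +kernel

theorem li11 : linChk chk 42649378395939397566720 sg 10 A 11 = true := by decide +kernel

theorem li15 : linChk chk 42649378395939397566720 sg 10 A 15 = true := by decide +kernel

theorem co0 : allR (cosChk chk 42649378395939397566720 sg 10 3 M (Cs.map Prod.fst)) 0 8 = true := by decide +kernel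

theorem co4 : allR (cosChk chk 42649378395939397566720 sg 10 3 M (Cs.map Prod.fst)) 32 8 = true := by decide +kernel

theorem co8 : allR (cosChk chk 42649378395939397566720 sg 10 3 M (Cs.map Prod.fst)) 64 8 = true := by decide +kernel

theorem co12 : allR (cosChk chk 42649378395939397566720 sg 10 3 M (Cs.map Prod.fst)) 96 8 = true := by decide +kernel

theorem cl : Cs.all (clsChk chk 42649378395939397566720 sg 10 A Reps) = true := by decide +kernel

end Cfsg.H6.Fi22I
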